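import Cfsg.Agent.Lib.H63.TCM11s.Chk
set_option autoImplicit false
set_option maxRecDepth 100000
set_option linter.all false
namespace H63.TCM11s
open H35.TC
section
variable {G : Type} [Group G] {g : Lt → G} {H : Subgroup G}
/-- the points of the nodes -/
noncomputable def cP (g : Lt → G) (H : Subgroup G) : ℕ → G ⧸ H := cc (fa g) lt P ((1 : G) : G ⧸ H)
theorem dp_a_0_s (hinv : ∀ x, g (inv x) = (g x)⁻¹) (hr : ∀ r ∈ rels, (r.map g).prod = 1) (hH : ∀ r ∈ subs, (r.map g).prod ∈ H)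
    (j u : ℕ) (hu : u < M) (h : dp_a_0 j u = true) : Good (fa g) T MG M (cP g H) Lt.a u := by
  unfold dp_a_0 at h
  rcases brec_true h with h | h
  · exact lF1_good (T := T) (x := Lt.a) (by decide) .a (hole_rel hinv hr (by decide +kernel)) h
  · exact lF_good (T := T) (x := Lt.a) (by decide) [Lt.b, Lt.a, Lt.b, Lt.a, Lt.bi, Lt.a, Lt.b, Lt.a, Lt.b, Lt.b, Lt.a, Lt.bi, Lt.a, Lt.b, Lt.a, Lt.bi, Lt.a, Lt.bi] (hole_rel hinv hr (by decide +kernel)) h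
theorem dp_a_1_s (hinv : ∀ x, g (inv x) = (g x)⁻¹) (hr : ∀ r ∈ rels, (r.map g).prod = 1) (hH : ∀ r ∈ subs, (r.map g).prod ∈ H)
    (j u : ℕ) (hu : u < M) (h : dp_a_1 j u = true) : Good (fa g) T MG M (cP g H) Lt.a u := by
  unfold dp_a_1 at h
  rcases brec_true h with h | h
  · exact lF_good (T := T) (x := Lt.a) (by decide) [Lt.bi, Lt.a, Lt.b, Lt.a, Lt.b, Lt.a, Lt.bi, Lt.a, Lt.b, Lt.a, Lt.b, Lt.b, Lt.a, Lt.bi, Lt.a, Lt.b, Lt.a, Lt.bi] (hole_rel hinv hr (by decide +kernel)) h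
  · exact lF_good (T := T) (x := Lt.a) (by decide) [Lt.b, Lt.b, Lt.a, Lt.b, Lt.b, Lt.a, Lt.b, Lt.b, Lt.a, Lt.b, Lt.b, Lt.a, Lt.b, Lt.b, Lt.a, Lt.b, Lt.b] (hole_rel hinv hr (by decide +kernel)) h
theorem dp_a_2_s (hinv : ∀ x, g (inv x) = (g x)⁻¹) (hr : ∀ r ∈ rels, (r.map g).prod = 1) (hH : ∀ r ∈ subs, (r.map g).prod ∈ H)
    (j u : ℕ) (hu : u < M) (h : dp_a_2 j u = true) : Good (fa g) T MG M (cP g H) Lt.a u := by
  unfold dp_a_2 at h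
  rcases brec_true h with h | h
  · exact lF_good (T := T) (x := Lt.a) (by decide) [Lt.bi, Lt.a, Lt.bi, Lt.a, Lt.b, Lt.a, Lt.b, Lt.a, Lt.bi, Lt.a, Lt.b, Lt.a, Lt.b, Lt.b, Lt.a, Lt.bi, Lt.a, Lt.b] (hole_rel hinv hr (by decide +kernel)) h
  · exact lF_good (T := T) (x := Lt.a) (by decide) [Lt.b, Lt.a, Lt.bi, Lt.a, Lt.bi, Lt.a, Lt.b, Lt.a, Lt.b, Lt.a, Lt.bi, Lt.a, Lt.b, Lt.a, Lt.b, Lt.b, Lt.a, Lt.bi] (hole_rel hinv hr (by decide +kernel)) h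
theorem dp_a_3_s (hinv : ∀ x, g (inv x) = (g x)⁻¹) (hr : ∀ r ∈ rels, (r.map g).prod = 1) (hH : ∀ r ∈ subs, (r.map g).prod ∈ H)
    (j u : ℕ) (hu : u < M) (h : dp_a_3 j u = true) : Good (fa g) T MG M (cP g H) Lt.a u := by
  unfold dp_a_3 at h
  rcases brec_true h with h | h
  · exact dp_a_1_s hinv hr hH j u hu h
  · exact dp_a_2_s hinv hr hH j u hu h
theorem dp_a_4_s (hinv : ∀ x, g (inv x) = (g x)⁻¹) (hr : ∀ r ∈ rels, (r.map g).prod = 1) (hH : ∀ r ∈ subs, (r.map g).prod ∈ H)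
    (j u : ℕ) (hu : u < M) (h : dp_a_4 j u = true) : Good (fa g) T MG M (cP g H) Lt.a u := by
  unfold dp_a_4 at h
  rcases brec_true h with h | h
  · exact lS_good (T := T) (x := Lt.a) (by decide) hu [Lt.a] (hole_rel hinv hr (by decide +kernel)) h
  · exact lF_good (T := T) (x := Lt.a) (by decide) [Lt.b, Lt.a, Lt.bi, Lt.a, Lt.b, Lt.a, Lt.b, Lt.b, Lt.a, Lt.bi, Lt.a, Lt.b, Lt.a, Lt.bi, Lt.a, Lt.bi, Lt.a, Lt.b] (hole_rel hinv hr (by decide +kernel)) h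
theorem dp_a_5_s (hinv : ∀ x, g (inv x) = (g x)⁻¹) (hr : ∀ r ∈ rels, (r.map g).prod = 1) (hH : ∀ r ∈ subs, (r.map g).prod ∈ H)
    (j u : ℕ) (hu : u < M) (h : dp_a_5 j u = true) : Good (fa g) T MG M (cP g H) Lt.a u := by
  unfold dp_a_5 at h
  rcases brec_true h with h | h
  · exact lF_good (T := T) (x := Lt.a) (by decide) [Lt.bi, Lt.a, Lt.b, Lt.a, Lt.bi, Lt.a, Lt.bi, Lt.a, Lt.b, Lt.a, Lt.b, Lt.a, Lt.bi, Lt.a, Lt.b, Lt.a, Lt.b, Lt.b] (hole_rel hinv hr (by decide +kernel)) h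
  · exact dp_a_4_s hinv hr hH j u hu h
theorem dp_a_6_s (hinv : ∀ x, g (inv x) = (g x)⁻¹) (hr : ∀ r ∈ rels, (r.map g).prod = 1) (hH : ∀ r ∈ subs, (r.map g).prod ∈ H)
    (j u : ℕ) (hu : u < M) (h : dp_a_6 j u = true) : Good (fa g) T MG M (cP g H) Lt.a u := by
  unfold dp_a_6 at h
  rcases brec_true h with h | h
  · exact lF_good (T := T) (x := Lt.a) (by decide) [Lt.b, Lt.a, Lt.b, Lt.a, Lt.b, Lt.a, Lt.b, Lt.a, Lt.b, Lt.a, Lt.b, Lt.a, Lt.b, Lt.a, Lt.b, Lt.a, Lt.b, Lt.a, Lt.b, Lt.a, Lt.b] (hole_rel hinv hr (by decide +kernel)) h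
  · exact lF_good (T := T) (x := Lt.a) (by decide) [Lt.bi, Lt.a, Lt.b, Lt.a, Lt.b, Lt.b, Lt.a, Lt.bi, Lt.a, Lt.b, Lt.a, Lt.bi, Lt.a, Lt.bi, Lt.a, Lt.b, Lt.a, Lt.b] (hole_rel hinv hr (by decide +kernel)) h
theorem dp_a_7_s (hinv : ∀ x, g (inv x) = (g x)⁻¹) (hr : ∀ r ∈ rels, (r.map g).prod = 1) (hH : ∀ r ∈ subs, (r.map g).prod ∈ H)
    (j u : ℕ) (hu : u < M) (h : dp_a_7 j u = true) : Good (fa g) T MG M (cP g H) Lt.a u := by
  unfold dp_a_7 at h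
  rcases brec_true h with h | h
  · exact lF_good (T := T) (x := Lt.a) (by decide) [Lt.bi, Lt.a, Lt.bi, Lt.a, Lt.bi, Lt.a, Lt.bi, Lt.a, Lt.bi, Lt.a, Lt.bi, Lt.a, Lt.bi, Lt.a, Lt.bi, Lt.a, Lt.bi, Lt.a, Lt.bi, Lt.a, Lt.bi] (hole_rel hinv hr (by decide +kernel)) h
  · exact lF_good (T := T) (x := Lt.a) (by decide) [Lt.b, Lt.b, Lt.a, Lt.bi, Lt.a, Lt.b, Lt.a, Lt.bi, Lt.a, Lt.bi, Lt.a, Lt.b, Lt.a, Lt.b, Lt.a, Lt.bi, Lt.a, Lt.b] (hole_rel hinv hr (by decide +kernel)) h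
theorem dp_a_8_s (hinv : ∀ x, g (inv x) = (g x)⁻¹) (hr : ∀ r ∈ rels, (r.map g).prod = 1) (hH : ∀ r ∈ subs, (r.map g).prod ∈ H)
    (j u : ℕ) (hu : u < M) (h : dp_a_8 j u = true) : Good (fa g) T MG M (cP g H) Lt.a u := by
  unfold dp_a_8 at h
  rcases brec_true h with h | h
  · exact lF_good (T := T) (x := Lt.a) (by decide) [Lt.bi, Lt.a, Lt.b, Lt.a, Lt.bi, Lt.bi, Lt.a, Lt.bi, Lt.a, Lt.b, Lt.a, Lt.bi, Lt.a, Lt.bi, Lt.a, Lt.b, Lt.a, Lt.b] (hole_rel hinv hr (by decide +kernel)) h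
  · exact lF_good (T := T) (x := Lt.a) (by decide) [Lt.bi, Lt.a, Lt.b, Lt.a, Lt.b, Lt.a, Lt.bi, Lt.a, Lt.b, Lt.a, Lt.bi, Lt.bi, Lt.a, Lt.bi, Lt.a, Lt.b, Lt.a, Lt.bi] (hole_rel hinv hr (by decide +kernel)) h
theorem dp_a_9_s (hinv : ∀ x, g (inv x) = (g x)⁻¹) (hr : ∀ r ∈ rels, (r.map g).prod = 1) (hH : ∀ r ∈ subs, (r.map g).prod ∈ H)
    (j u : ℕ) (hu : u < M) (h : dp_a_9 j u = true) : Good (fa g) T MG M (cP g H) Lt.a u := by
  unfold dp_a_9 at h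
  rcases brec_true h with h | h
  · exact lF_good (T := T) (x := Lt.a) (by decide) [Lt.b, Lt.a, Lt.b, Lt.b, Lt.a, Lt.bi, Lt.a, Lt.b, Lt.a, Lt.bi, Lt.a, Lt.bi, Lt.a, Lt.b, Lt.a, Lt.b, Lt.a, Lt.bi] (hole_rel hinv hr (by decide +kernel)) h
  · exact dp_a_8_s hinv hr hH j u hu h
theorem dp_a_10_s (hinv : ∀ x, g (inv x) = (g x)⁻¹) (hr : ∀ r ∈ rels, (r.map g).prod = 1) (hH : ∀ r ∈ subs, (r.map g).prod ∈ H)
    (j u : ℕ) (hu : u < M) (h : dp_a_10 j u = true) : Good (fa g) T MG M (cP g H) Lt.a u := by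
  unfold dp_a_10 at h
  rcases brec_true h with h | h
  · exact lF_good (T := T) (x := Lt.a) (by decide) [Lt.bi, Lt.bi, Lt.a, Lt.bi, Lt.bi, Lt.a, Lt.bi, Lt.bi, Lt.a, Lt.bi, Lt.bi, Lt.a, Lt.bi, Lt.bi, Lt.a, Lt.bi, Lt.bi] (hole_rel hinv hr (by decide +kernel)) h
  · exact dp_a_9_s hinv hr hH j u hu h
theorem dp_a_11_s (hinv : ∀ x, g (inv x) = (g x)⁻¹) (hr : ∀ r ∈ rels, (r.map g).prod = 1) (hH : ∀ r ∈ subs, (r.map g).prod ∈ H)
    (j u : ℕ) (hu : u < M) (h : dp_a_11 j u = true) : Good (fa g) T MG M (cP g H) Lt.a u := by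
  unfold dp_a_11 at h
  rcases brec_true h with h | h
  · exact dp_a_7_s hinv hr hH j u hu h
  · exact dp_a_10_s hinv hr hH j u hu h
theorem dp_a_12_s (hinv : ∀ x, g (inv x) = (g x)⁻¹) (hr : ∀ r ∈ rels, (r.map g).prod = 1) (hH : ∀ r ∈ subs, (r.map g).prod ∈ H)
    (j u : ℕ) (hu : u < M) (h : dp_a_12 j u = true) : Good (fa g) T MG M (cP g H) Lt.a u := by
  unfold dp_a_12 at h
  rcases brec_true h with h | h
  · exact dp_a_6_s hinv hr hH j u hu h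
  · exact dp_a_11_s hinv hr hH j u hu h
theorem dp_a_13_s (hinv : ∀ x, g (inv x) = (g x)⁻¹) (hr : ∀ r ∈ rels, (r.map g).prod = 1) (hH : ∀ r ∈ subs, (r.map g).prod ∈ H)
    (j u : ℕ) (hu : u < M) (h : dp_a_13 j u = true) : Good (fa g) T MG M (cP g H) Lt.a u := by
  unfold dp_a_13 at h
  rcases brec_true h with h | h
  · exact dp_a_5_s hinv hr hH j u hu h
  · exact dp_a_12_s hinv hr hH j u hu h
theorem dp_a_14_s (hinv : ∀ x, g (inv x) = (g x)⁻¹) (hr : ∀ r ∈ rels, (r.map g).prod = 1) (hH : ∀ r ∈ subs, (r.map g).prod ∈ H)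
    (j u : ℕ) (hu : u < M) (h : dp_a_14 j u = true) : Good (fa g) T MG M (cP g H) Lt.a u := by
  unfold dp_a_14 at h
  rcases brec_true h with h | h
  · exact dp_a_3_s hinv hr hH j u hu h
  · exact dp_a_13_s hinv hr hH j u hu h
theorem dp_a_15_s (hinv : ∀ x, g (inv x) = (g x)⁻¹) (hr : ∀ r ∈ rels, (r.map g).prod = 1) (hH : ∀ r ∈ subs, (r.map g).prod ∈ H)
    (j u : ℕ) (hu : u < M) (h : dp_a_15 j u = true) : Good (fa g) T MG M (cP g H) Lt.a u := by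
  unfold dp_a_15 at h
  rcases brec_true h with h | h
  · exact dp_a_0_s hinv hr hH j u hu h
  · exact dp_a_14_s hinv hr hH j u hu h
theorem snd_a (hinv : ∀ x, g (inv x) = (g x)⁻¹) (hr : ∀ r ∈ rels, (r.map g).prod = 1) (hH : ∀ r ∈ subs, (r.map g).prod ∈ H)
    (j u : ℕ) (hu : u < M) (h : disp_a j u = true) : Good (fa g) T MG M (cP g H) Lt.a u := by
  unfold disp_a at h
  rcases brec_true h with h | h
  · exact lDef_good (T := T) (x := Lt.a) (by decide) rfl h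
  · rcases brec_true h with h | h
    · exact lPar_good (T := T) (x := Lt.a) (x' := Lt.a) (by decide) rfl (inv_rel hinv _ _ rfl) h
    · exact dp_a_15_s hinv hr hH j u hu h
theorem snc_a (hinv : ∀ x, g (inv x) = (g x)⁻¹) (hr : ∀ r ∈ rels, (r.map g).prod = 1) (hH : ∀ r ∈ subs, (r.map g).prod ∈ H)
    (j u : ℕ) (hu : u < M) (h : chk_a j u = true) : (T Lt.a u < A ∧ Good (fa g) T MG M (cP g H) Lt.a u) ∨ (A ≤ T Lt.a u ∧ MG u < A) := by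
  unfold chk_a at h
  cases hb : Nat.ble A (T_a u) with
  | true => rw [hb] at h; exact Or.inr ⟨le_of_ble hb, le_of_ble h⟩
  | false => rw [hb] at h; exact Or.inl ⟨lt_of_ble_false hb, snd_a hinv hr hH j u hu h⟩
theorem dp_b_0_s (hinv : ∀ x, g (inv x) = (g x)⁻¹) (hr : ∀ r ∈ rels, (r.map g).prod = 1) (hH : ∀ r ∈ subs, (r.map g).prod ∈ H)
    (j u : ℕ) (hu : u < M) (h : dp_b_0 j u = true) : Good (fa g) T MG M (cP g H) Lt.b u := by
  unfold dp_b_0 at h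
  rcases brec_true h with h | h
  · exact lF_good (T := T) (x := Lt.b) (by decide) [Lt.b, Lt.a, Lt.bi, Lt.a, Lt.b, Lt.a, Lt.bi, Lt.a, Lt.bi, Lt.a, Lt.b, Lt.a, Lt.b, Lt.a, Lt.bi, Lt.a, Lt.b, Lt.a] (hole_rel hinv hr (by decide +kernel)) h
  · exact lF_good (T := T) (x := Lt.b) (by decide) [Lt.a, Lt.b, Lt.b, Lt.a, Lt.bi, Lt.a, Lt.b, Lt.a, Lt.bi, Lt.a, Lt.bi, Lt.a, Lt.b, Lt.a, Lt.b, Lt.a, Lt.bi, Lt.a] (hole_rel hinv hr (by decide +kernel)) h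
theorem dp_b_1_s (hinv : ∀ x, g (inv x) = (g x)⁻¹) (hr : ∀ r ∈ rels, (r.map g).prod = 1) (hH : ∀ r ∈ subs, (r.map g).prod ∈ H)
    (j u : ℕ) (hu : u < M) (h : dp_b_1 j u = true) : Good (fa g) T MG M (cP g H) Lt.b u := by
  unfold dp_b_1 at h
  rcases brec_true h with h | h
  · exact lF_good (T := T) (x := Lt.b) (by decide) [Lt.a, Lt.b, Lt.b, Lt.a, Lt.b, Lt.b, Lt.a, Lt.b, Lt.b, Lt.a, Lt.b, Lt.b, Lt.a, Lt.b, Lt.b, Lt.a, Lt.b] (hole_rel hinv hr (by decide +kernel)) h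
  · exact dp_b_0_s hinv hr hH j u hu h
theorem dp_b_2_s (hinv : ∀ x, g (inv x) = (g x)⁻¹) (hr : ∀ r ∈ rels, (r.map g).prod = 1) (hH : ∀ r ∈ subs, (r.map g).prod ∈ H)
    (j u : ℕ) (hu : u < M) (h : dp_b_2 j u = true) : Good (fa g) T MG M (cP g H) Lt.b u := by
  unfold dp_b_2 at h
  rcases brec_true h with h | h
  · exact lS_good (T := T) (x := Lt.b) (by decide) hu [Lt.bi] (hole_rel hinv hr (by decide +kernel)) h
  · exact lF_good (T := T) (x := Lt.b) (by decide) [Lt.a, Lt.bi, Lt.a, Lt.b, Lt.a, Lt.b, Lt.b, Lt.a, Lt.bi, Lt.a, Lt.b, Lt.a, Lt.bi, Lt.a, Lt.bi, Lt.a, Lt.b, Lt.a] (hole_rel hinv hr (by decide +kernel)) h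
theorem dp_b_3_s (hinv : ∀ x, g (inv x) = (g x)⁻¹) (hr : ∀ r ∈ rels, (r.map g).prod = 1) (hH : ∀ r ∈ subs, (r.map g).prod ∈ H)
    (j u : ℕ) (hu : u < M) (h : dp_b_3 j u = true) : Good (fa g) T MG M (cP g H) Lt.b u := by
  unfold dp_b_3 at h
  rcases brec_true h with h | h
  · exact lF_good (T := T) (x := Lt.b) (by decide) [Lt.a, Lt.b, Lt.a, Lt.bi, Lt.a, Lt.b, Lt.a, Lt.b, Lt.b, Lt.a, Lt.bi, Lt.a, Lt.b, Lt.a, Lt.bi, Lt.a, Lt.bi, Lt.a] (hole_rel hinv hr (by decide +kernel)) h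
  · exact lF_good (T := T) (x := Lt.b) (by decide) [Lt.a, Lt.b, Lt.a, Lt.b, Lt.a, Lt.b, Lt.a, Lt.b, Lt.a, Lt.b, Lt.a, Lt.b, Lt.a, Lt.b, Lt.a, Lt.b, Lt.a, Lt.b, Lt.a, Lt.b, Lt.a] (hole_rel hinv hr (by decide +kernel)) h
theorem dp_b_4_s (hinv : ∀ x, g (inv x) = (g x)⁻¹) (hr : ∀ r ∈ rels, (r.map g).prod = 1) (hH : ∀ r ∈ subs, (r.map g).prod ∈ H)
    (j u : ℕ) (hu : u < M) (h : dp_b_4 j u = true) : Good (fa g) T MG M (cP g H) Lt.b u := by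
  unfold dp_b_4 at h
  rcases brec_true h with h | h
  · exact lH_good (T := T) (x := Lt.b) (by decide) [Lt.a] [] (by rw [show cP g H 0 = _ from cc_zero]; exact sub_rel hinv (hH _ (by decide))) h
  · exact lF_good (T := T) (x := Lt.b) (by decide) [Lt.a, Lt.bi, Lt.a, Lt.b, Lt.a, Lt.bi, Lt.a, Lt.bi, Lt.a, Lt.b, Lt.a, Lt.b, Lt.a, Lt.bi, Lt.a, Lt.b, Lt.a, Lt.b] (hole_rel hinv hr (by decide +kernel)) h
theorem dp_b_5_s (hinv : ∀ x, g (inv x) = (g x)⁻¹) (hr : ∀ r ∈ rels, (r.map g).prod = 1) (hH : ∀ r ∈ subs, (r.map g).prod ∈ H)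
    (j u : ℕ) (hu : u < M) (h : dp_b_5 j u = true) : Good (fa g) T MG M (cP g H) Lt.b u := by
  unfold dp_b_5 at h
  rcases brec_true h with h | h
  · exact lF_good (T := T) (x := Lt.b) (by decide) [Lt.a, Lt.bi, Lt.a, Lt.bi, Lt.a, Lt.b, Lt.a, Lt.b, Lt.a, Lt.bi, Lt.a, Lt.b, Lt.a, Lt.b, Lt.b, Lt.a, Lt.bi, Lt.a] (hole_rel hinv hr (by decide +kernel)) h
  · exact dp_b_4_s hinv hr hH j u hu h
theorem dp_b_6_s (hinv : ∀ x, g (inv x) = (g x)⁻¹) (hr : ∀ r ∈ rels, (r.map g).prod = 1) (hH : ∀ r ∈ subs, (r.map g).prod ∈ H)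
    (j u : ℕ) (hu : u < M) (h : dp_b_6 j u = true) : Good (fa g) T MG M (cP g H) Lt.b u := by
  unfold dp_b_6 at h
  rcases brec_true h with h | h
  · exact lF_good (T := T) (x := Lt.b) (by decide) [Lt.b, Lt.a, Lt.b, Lt.b, Lt.a, Lt.b, Lt.b, Lt.a, Lt.b, Lt.b, Lt.a, Lt.b, Lt.b, Lt.a, Lt.b, Lt.b, Lt.a] (hole_rel hinv hr (by decide +kernel)) h
  · exact dp_b_5_s hinv hr hH j u hu h
theorem dp_b_7_s (hinv : ∀ x, g (inv x) = (g x)⁻¹) (hr : ∀ r ∈ rels, (r.map g).prod = 1) (hH : ∀ r ∈ subs, (r.map g).prod ∈ H)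
    (j u : ℕ) (hu : u < M) (h : dp_b_7 j u = true) : Good (fa g) T MG M (cP g H) Lt.b u := by
  unfold dp_b_7 at h
  rcases brec_true h with h | h
  · exact dp_b_3_s hinv hr hH j u hu h
  · exact dp_b_6_s hinv hr hH j u hu h
theorem dp_b_8_s (hinv : ∀ x, g (inv x) = (g x)⁻¹) (hr : ∀ r ∈ rels, (r.map g).prod = 1) (hH : ∀ r ∈ subs, (r.map g).prod ∈ H)
    (j u : ℕ) (hu : u < M) (h : dp_b_8 j u = true) : Good (fa g) T MG M (cP g H) Lt.b u := by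
  unfold dp_b_8 at h
  rcases brec_true h with h | h
  · exact dp_b_2_s hinv hr hH j u hu h
  · exact dp_b_7_s hinv hr hH j u hu h
theorem dp_b_9_s (hinv : ∀ x, g (inv x) = (g x)⁻¹) (hr : ∀ r ∈ rels, (r.map g).prod = 1) (hH : ∀ r ∈ subs, (r.map g).prod ∈ H)
    (j u : ℕ) (hu : u < M) (h : dp_b_9 j u = true) : Good (fa g) T MG M (cP g H) Lt.b u := by
  unfold dp_b_9 at h
  rcases brec_true h with h | h
  · exact dp_b_1_s hinv hr hH j u hu h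
  · exact dp_b_8_s hinv hr hH j u hu h
theorem dp_b_10_s (hinv : ∀ x, g (inv x) = (g x)⁻¹) (hr : ∀ r ∈ rels, (r.map g).prod = 1) (hH : ∀ r ∈ subs, (r.map g).prod ∈ H)
    (j u : ℕ) (hu : u < M) (h : dp_b_10 j u = true) : Good (fa g) T MG M (cP g H) Lt.b u := by
  unfold dp_b_10 at h
  rcases brec_true h with h | h
  · exact lF1_good (T := T) (x := Lt.b) (by decide) .bi (hole_rel hinv hr (by decide +kernel)) h
  · exact dp_b_9_s hinv hr hH j u hu h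
theorem dp_b_11_s (hinv : ∀ x, g (inv x) = (g x)⁻¹) (hr : ∀ r ∈ rels, (r.map g).prod = 1) (hH : ∀ r ∈ subs, (r.map g).prod ∈ H)
    (j u : ℕ) (hu : u < M) (h : dp_b_11 j u = true) : Good (fa g) T MG M (cP g H) Lt.b u := by
  unfold dp_b_11 at h
  rcases brec_true h with h | h
  · exact lF3_good (T := T) (x := Lt.b) (by decide) .b .b .b (hole_rel hinv hr (by decide +kernel)) h
  · exact dp_b_10_s hinv hr hH j u hu h
theorem snd_b (hinv : ∀ x, g (inv x) = (g x)⁻¹) (hr : ∀ r ∈ rels, (r.map g).prod = 1) (hH : ∀ r ∈ subs, (r.map g).prod ∈ H)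
    (j u : ℕ) (hu : u < M) (h : disp_b j u = true) : Good (fa g) T MG M (cP g H) Lt.b u := by
  unfold disp_b at h
  rcases brec_true h with h | h
  · exact lDef_good (T := T) (x := Lt.b) (by decide) rfl h
  · rcases brec_true h with h | h
    · exact lPar_good (T := T) (x := Lt.b) (x' := Lt.bi) (by decide) rfl (inv_rel hinv _ _ rfl) h
    · exact dp_b_11_s hinv hr hH j u hu h
theorem snc_b (hinv : ∀ x, g (inv x) = (g x)⁻¹) (hr : ∀ r ∈ rels, (r.map g).prod = 1) (hH : ∀ r ∈ subs, (r.map g).prod ∈ H)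
    (j u : ℕ) (hu : u < M) (h : chk_b j u = true) : (T Lt.b u < A ∧ Good (fa g) T MG M (cP g H) Lt.b u) ∨ (A ≤ T Lt.b u ∧ MG u < A) := by
  unfold chk_b at h
  cases hb : Nat.ble A (T_b u) with
  | true => rw [hb] at h; exact Or.inr ⟨le_of_ble hb, le_of_ble h⟩
  | false => rw [hb] at h; exact Or.inl ⟨lt_of_ble_false hb, snd_b hinv hr hH j u hu h⟩
theorem dp_bi_0_s (hinv : ∀ x, g (inv x) = (g x)⁻¹) (hr : ∀ r ∈ rels, (r.map g).prod = 1) (hH : ∀ r ∈ subs, (r.map g).prod ∈ H)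
    (j u : ℕ) (hu : u < M) (h : dp_bi_0 j u = true) : Good (fa g) T MG M (cP g H) Lt.bi u := by
  unfold dp_bi_0 at h
  rcases brec_true h with h | h
  · exact lF_good (T := T) (x := Lt.bi) (by decide) [Lt.bi, Lt.a, Lt.bi, Lt.a, Lt.b, Lt.a, Lt.bi, Lt.a, Lt.bi, Lt.a, Lt.b, Lt.a, Lt.b, Lt.a, Lt.bi, Lt.a, Lt.b, Lt.a] (hole_rel hinv hr (by decide +kernel)) h
  · exact lF_good (T := T) (x := Lt.bi) (by decide) [Lt.a, Lt.b, Lt.a, Lt.b, Lt.b, Lt.a, Lt.bi, Lt.a, Lt.b, Lt.a, Lt.bi, Lt.a, Lt.bi, Lt.a, Lt.b, Lt.a, Lt.b, Lt.a] (hole_rel hinv hr (by decide +kernel)) h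
theorem dp_bi_1_s (hinv : ∀ x, g (inv x) = (g x)⁻¹) (hr : ∀ r ∈ rels, (r.map g).prod = 1) (hH : ∀ r ∈ subs, (r.map g).prod ∈ H)
    (j u : ℕ) (hu : u < M) (h : dp_bi_1 j u = true) : Good (fa g) T MG M (cP g H) Lt.bi u := by
  unfold dp_bi_1 at h
  rcases brec_true h with h | h
  · exact lF3_good (T := T) (x := Lt.bi) (by decide) .bi .bi .bi (hole_rel hinv hr (by decide +kernel)) h
  · exact dp_bi_0_s hinv hr hH j u hu h
theorem dp_bi_2_s (hinv : ∀ x, g (inv x) = (g x)⁻¹) (hr : ∀ r ∈ rels, (r.map g).prod = 1) (hH : ∀ r ∈ subs, (r.map g).prod ∈ H)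
    (j u : ℕ) (hu : u < M) (h : dp_bi_2 j u = true) : Good (fa g) T MG M (cP g H) Lt.bi u := by
  unfold dp_bi_2 at h
  rcases brec_true h with h | h
  · exact lF_good (T := T) (x := Lt.bi) (by decide) [Lt.a, Lt.bi, Lt.a, Lt.bi, Lt.a, Lt.bi, Lt.a, Lt.bi, Lt.a, Lt.bi, Lt.a, Lt.bi, Lt.a, Lt.bi, Lt.a, Lt.bi, Lt.a, Lt.bi, Lt.a, Lt.bi, Lt.a] (hole_rel hinv hr (by decide +kernel)) h
  · exact lF_good (T := T) (x := Lt.bi) (by decide) [Lt.a, Lt.bi, Lt.a, Lt.b, Lt.a, Lt.b, Lt.a, Lt.bi, Lt.a, Lt.b, Lt.a, Lt.b, Lt.b, Lt.a, Lt.bi, Lt.a, Lt.b, Lt.a] (hole_rel hinv hr (by decide +kernel)) h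
theorem dp_bi_3_s (hinv : ∀ x, g (inv x) = (g x)⁻¹) (hr : ∀ r ∈ rels, (r.map g).prod = 1) (hH : ∀ r ∈ subs, (r.map g).prod ∈ H)
    (j u : ℕ) (hu : u < M) (h : dp_bi_3 j u = true) : Good (fa g) T MG M (cP g H) Lt.bi u := by
  unfold dp_bi_3 at h
  rcases brec_true h with h | h
  · exact lS_good (T := T) (x := Lt.bi) (by decide) hu [Lt.b] (hole_rel hinv hr (by decide +kernel)) h
  · exact lF_good (T := T) (x := Lt.bi) (by decide) [Lt.a, Lt.b, Lt.a, Lt.bi, Lt.a, Lt.bi, Lt.a, Lt.b, Lt.a, Lt.b, Lt.a, Lt.bi, Lt.a, Lt.b, Lt.a, Lt.b, Lt.b, Lt.a] (hole_rel hinv hr (by decide +kernel)) h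
theorem dp_bi_4_s (hinv : ∀ x, g (inv x) = (g x)⁻¹) (hr : ∀ r ∈ rels, (r.map g).prod = 1) (hH : ∀ r ∈ subs, (r.map g).prod ∈ H)
    (j u : ℕ) (hu : u < M) (h : dp_bi_4 j u = true) : Good (fa g) T MG M (cP g H) Lt.bi u := by
  unfold dp_bi_4 at h
  rcases brec_true h with h | h
  · exact lF_good (T := T) (x := Lt.bi) (by decide) [Lt.a, Lt.b, Lt.a, Lt.b, Lt.a, Lt.bi, Lt.a, Lt.b, Lt.a, Lt.b, Lt.b, Lt.a, Lt.bi, Lt.a, Lt.b, Lt.a, Lt.bi, Lt.a] (hole_rel hinv hr (by decide +kernel)) h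
  · exact lF_good (T := T) (x := Lt.bi) (by decide) [Lt.a, Lt.bi, Lt.a, Lt.b, Lt.a, Lt.bi, Lt.a, Lt.bi, Lt.a, Lt.b, Lt.a, Lt.b, Lt.a, Lt.bi, Lt.a, Lt.b, Lt.a, Lt.bi] (hole_rel hinv hr (by decide +kernel)) h
theorem dp_bi_5_s (hinv : ∀ x, g (inv x) = (g x)⁻¹) (hr : ∀ r ∈ rels, (r.map g).prod = 1) (hH : ∀ r ∈ subs, (r.map g).prod ∈ H)
    (j u : ℕ) (hu : u < M) (h : dp_bi_5 j u = true) : Good (fa g) T MG M (cP g H) Lt.bi u := by
  unfold dp_bi_5 at h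
  rcases brec_true h with h | h
  · exact lF_good (T := T) (x := Lt.bi) (by decide) [Lt.bi, Lt.a, Lt.bi, Lt.bi, Lt.a, Lt.bi, Lt.bi, Lt.a, Lt.bi, Lt.bi, Lt.a, Lt.bi, Lt.bi, Lt.a, Lt.bi, Lt.bi, Lt.a] (hole_rel hinv hr (by decide +kernel)) h
  · exact dp_bi_4_s hinv hr hH j u hu h
theorem dp_bi_6_s (hinv : ∀ x, g (inv x) = (g x)⁻¹) (hr : ∀ r ∈ rels, (r.map g).prod = 1) (hH : ∀ r ∈ subs, (r.map g).prod ∈ H)
    (j u : ℕ) (hu : u < M) (h : dp_bi_6 j u = true) : Good (fa g) T MG M (cP g H) Lt.bi u := by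
  unfold dp_bi_6 at h
  rcases brec_true h with h | h
  · exact lF_good (T := T) (x := Lt.bi) (by decide) [Lt.a, Lt.bi, Lt.bi, Lt.a, Lt.bi, Lt.bi, Lt.a, Lt.bi, Lt.bi, Lt.a, Lt.bi, Lt.bi, Lt.a, Lt.bi, Lt.bi, Lt.a, Lt.bi] (hole_rel hinv hr (by decide +kernel)) h
  · exact dp_bi_5_s hinv hr hH j u hu h
theorem dp_bi_7_s (hinv : ∀ x, g (inv x) = (g x)⁻¹) (hr : ∀ r ∈ rels, (r.map g).prod = 1) (hH : ∀ r ∈ subs, (r.map g).prod ∈ H)
    (j u : ℕ) (hu : u < M) (h : dp_bi_7 j u = true) : Good (fa g) T MG M (cP g H) Lt.bi u := by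
  unfold dp_bi_7 at h
  rcases brec_true h with h | h
  · exact dp_bi_3_s hinv hr hH j u hu h
  · exact dp_bi_6_s hinv hr hH j u hu h
theorem dp_bi_8_s (hinv : ∀ x, g (inv x) = (g x)⁻¹) (hr : ∀ r ∈ rels, (r.map g).prod = 1) (hH : ∀ r ∈ subs, (r.map g).prod ∈ H)
    (j u : ℕ) (hu : u < M) (h : dp_bi_8 j u = true) : Good (fa g) T MG M (cP g H) Lt.bi u := by
  unfold dp_bi_8 at h
  rcases brec_true h with h | h
  · exact dp_bi_2_s hinv hr hH j u hu h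
  · exact dp_bi_7_s hinv hr hH j u hu h
theorem dp_bi_9_s (hinv : ∀ x, g (inv x) = (g x)⁻¹) (hr : ∀ r ∈ rels, (r.map g).prod = 1) (hH : ∀ r ∈ subs, (r.map g).prod ∈ H)
    (j u : ℕ) (hu : u < M) (h : dp_bi_9 j u = true) : Good (fa g) T MG M (cP g H) Lt.bi u := by
  unfold dp_bi_9 at h
  rcases brec_true h with h | h
  · exact dp_bi_1_s hinv hr hH j u hu h
  · exact dp_bi_8_s hinv hr hH j u hu h
theorem dp_bi_10_s (hinv : ∀ x, g (inv x) = (g x)⁻¹) (hr : ∀ r ∈ rels, (r.map g).prod = 1) (hH : ∀ r ∈ subs, (r.map g).prod ∈ H)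
    (j u : ℕ) (hu : u < M) (h : dp_bi_10 j u = true) : Good (fa g) T MG M (cP g H) Lt.bi u := by
  unfold dp_bi_10 at h
  rcases brec_true h with h | h
  · exact lF1_good (T := T) (x := Lt.bi) (by decide) .b (hole_rel hinv hr (by decide +kernel)) h
  · exact dp_bi_9_s hinv hr hH j u hu h
theorem snd_bi (hinv : ∀ x, g (inv x) = (g x)⁻¹) (hr : ∀ r ∈ rels, (r.map g).prod = 1) (hH : ∀ r ∈ subs, (r.map g).prod ∈ H)
    (j u : ℕ) (hu : u < M) (h : disp_bi j u = true) : Good (fa g) T MG M (cP g H) Lt.bi u := by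
  unfold disp_bi at h
  rcases brec_true h with h | h
  · exact lPar_good (T := T) (x := Lt.bi) (x' := Lt.b) (by decide) rfl (inv_rel hinv _ _ rfl) h
  · rcases brec_true h with h | h
    · exact lDef_good (T := T) (x := Lt.bi) (by decide) rfl h
    · exact dp_bi_10_s hinv hr hH j u hu h
theorem snc_bi (hinv : ∀ x, g (inv x) = (g x)⁻¹) (hr : ∀ r ∈ rels, (r.map g).prod = 1) (hH : ∀ r ∈ subs, (r.map g).prod ∈ H)
    (j u : ℕ) (hu : u < M) (h : chk_bi j u = true) : (T Lt.bi u < A ∧ Good (fa g) T MG M (cP g H) Lt.bi u) ∨ (A ≤ T Lt.bi u ∧ MG u < A) := by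
  unfold chk_bi at h
  cases hb : Nat.ble A (T_bi u) with
  | true => rw [hb] at h; exact Or.inr ⟨le_of_ble hb, le_of_ble h⟩
  | false => rw [hb] at h; exact Or.inl ⟨lt_of_ble_false hb, snd_bi hinv hr hH j u hu h⟩
theorem dM_0_s (hinv : ∀ x, g (inv x) = (g x)⁻¹) (hr : ∀ r ∈ rels, (r.map g).prod = 1) (j z1 z2 u : ℕ) (h : dM_0 j z1 z2 u = true) : GoodM (fa g) T MG M (cP g H) u := by
  unfold dM_0 at h
  rcases brec_true h with h | h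
  · exact mCo_good (T := T) (y := .a) (by decide) h
  · rcases brec_true h with h | h
    · exact mCo_good (T := T) (y := .b) (by decide) h
    · rcases brec_true h with h | h
      · exact mCo_good (T := T) (y := .bi) (by decide) h
      · rcases brec_true h with h | h
        · rcases brec_true h with h | h
          · exact mRel_good (T := T) (by decide) [Lt.b, Lt.a, Lt.b, Lt.b, Lt.a, Lt.bi, Lt.a, Lt.b, Lt.a] [Lt.a, Lt.b, Lt.a, Lt.bi, Lt.a, Lt.bi, Lt.a, Lt.b, Lt.a, Lt.b] (pair_rel hinv hr (by decide +kernel)) h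
          · rcases brec_true h with h | h
            · exact mRel_good (T := T) (by decide) [Lt.a, Lt.bi, Lt.a, Lt.bi, Lt.a, Lt.bi, Lt.a, Lt.bi, Lt.a, Lt.bi, Lt.a, Lt.bi, Lt.a, Lt.bi, Lt.a, Lt.bi, Lt.a, Lt.bi, Lt.a, Lt.bi, Lt.a] [Lt.b] (pair_rel hinv hr (by decide +kernel)) h
            · exact mRel_good (T := T) (by decide) [Lt.b, Lt.b, Lt.a, Lt.b, Lt.b, Lt.a, Lt.b, Lt.b, Lt.a] [Lt.a, Lt.bi, Lt.bi, Lt.a, Lt.bi, Lt.bi, Lt.a, Lt.bi, Lt.bi] (pair_rel hinv hr (by decide +kernel)) h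
        · rcases brec_true h with h | h
          · rcases brec_true h with h | h
            · exact mRel_good (T := T) (by decide) [Lt.bi, Lt.a, Lt.bi, Lt.bi, Lt.a, Lt.bi, Lt.bi, Lt.a, Lt.bi, Lt.bi, Lt.a, Lt.bi, Lt.bi] [Lt.b, Lt.a, Lt.b, Lt.b, Lt.a] (pair_rel hinv hr (by decide +kernel)) h
            · exact mRel_good (T := T) (by decide) [Lt.b, Lt.a, Lt.b, Lt.a, Lt.bi, Lt.a, Lt.b, Lt.a, Lt.b, Lt.b, Lt.a, Lt.bi, Lt.a] [Lt.a, Lt.b, Lt.a, Lt.b, Lt.a, Lt.bi] (pair_rel hinv hr (by decide +kernel)) h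
          · rcases brec_true h with h | h
            · exact mRel_good (T := T) (by decide) [Lt.a, Lt.b, Lt.a, Lt.bi, Lt.a, Lt.bi, Lt.a, Lt.b, Lt.a] [Lt.b, Lt.a, Lt.bi, Lt.bi, Lt.a, Lt.bi, Lt.a, Lt.b, Lt.a, Lt.bi] (pair_rel hinv hr (by decide +kernel)) h
            · exact mRel_good (T := T) (by decide) [Lt.bi, Lt.a, Lt.bi, Lt.a, Lt.b, Lt.a, Lt.b, Lt.a] [Lt.a, Lt.bi, Lt.a, Lt.b, Lt.a, Lt.bi, Lt.bi, Lt.a, Lt.bi, Lt.a, Lt.b] (pair_rel hinv hr (by decide +kernel)) h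
theorem sndM (hinv : ∀ x, g (inv x) = (g x)⁻¹) (hr : ∀ r ∈ rels, (r.map g).prod = 1) (u : ℕ) (h : chkM u = true) :
    MG u < A → MG u % M < u ∧ GoodM (fa g) T MG M (cP g H) u := by
  intro hA
  unfold chkM at h
  cases hb : Nat.ble A (MG u) with
  | true => exact absurd (le_of_ble hb) (by omega)
  | false =>
    rw [hb] at h
    obtain ⟨h1, h2⟩ := band_eq_true.1 h
    exact ⟨le_of_ble h1, dM_0_s hinv hr _ _ _ _ h2⟩
theorem sndN (hinv : ∀ x, g (inv x) = (g x)⁻¹) (hr : ∀ r ∈ rels, (r.map g).prod = 1) (hH : ∀ r ∈ subs, (r.map g).prod ∈ H)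
    (u : ℕ) (hu : u < M) (h : chkP u = true) : (∀ x, (T x u < A ∧ Good (fa g) T MG M (cP g H) x u) ∨ (A ≤ T x u ∧ MG u < A)) ∧ (MG u < A → MG u % M < u ∧ GoodM (fa g) T MG M (cP g H) u) := by
  unfold chkP at h
  cases hb : Nat.ble M u with
  | true => exact absurd (le_of_ble hb) (by omega)
  | false =>
    rw [hb] at h
    change chkN u = true at h
    unfold chkN at h
    obtain ⟨h0, h⟩ := band_eq_true.1 h
    obtain ⟨h1, h⟩ := band_eq_true.1 h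
    obtain ⟨h2, h⟩ := band_eq_true.1 h
    refine ⟨?_, sndM hinv hr u h⟩
    intro x
    cases x
    · exact snc_a hinv hr hH _ u hu h0
    · exact snc_b hinv hr hH _ u hu h1
    · exact snc_bi hinv hr hH _ u hu h2
theorem final (hinv : ∀ x, g (inv x) = (g x)⁻¹) (hr : ∀ r ∈ rels, (r.map g).prod = 1) (hH : ∀ r ∈ subs, (r.map g).prod ∈ H)
    (hall : ∀ u, u < M → chkP u = true) (hc : cntB liveP 11 0 = 720) :
    H.relIndex (Subgroup.closure (Set.range g)) ≤ 720 ∧ H.relIndex (Subgroup.closure (Set.range g)) ≠ 0 := by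
  have hn := fun u hu => sndN hinv hr hH u hu (hall u hu)
  have h1 : ∀ x u, u < M → T x u < A → Good (fa g) T MG M (cP g H) x u := by
    intro x u hu hx
    rcases (hn u hu).1 x with h | h
    · exact h.2
    · exact absurd h.1 (by omega)
  have h2 : ∀ u, u < M → MG u < A → GoodM (fa g) T MG M (cP g H) u := fun u hu h => ((hn u hu).2 h).2
  refine relIndex_le (M := M) (A := A) (T := T) (MG := MG) (c := cP g H) (by decide) cc_zero (sound_of_good h1 h2) ?_ ?_ ?_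
  · intro u hu h
    exact ((hn u hu).2 h).1
  · intro x u hu h
    rcases (hn u hu).1 x with h' | h'
    · exact h'.1
    · exact absurd h'.2 (by omega)
  · rw [← hc, ← cntB_spec]
    apply Finset.card_le_card
    intro u
    simp only [Finset.mem_filter, Finset.mem_Ico]
    rintro ⟨⟨_, h3⟩, h4⟩
    refine ⟨⟨Nat.zero_le _, lt_of_lt_of_le h3 (by decide)⟩, ?_⟩
    unfold liveP
    cases hb : Nat.ble M u with
    | true => exact absurd (le_of_ble hb) (by omega)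
    | false => exact h4
end
end H63.TCM11s
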